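import Mathlib
import Cfsg.Agent.H01.XF1
import Cfsg.Agent.H01.XT5
import Cfsg.Prelude.Def_JankoFourType
import Cfsg.Prelude.Def_Spor_Mathieu

/-! Interface for the unique `2¹¹` in a Sylow 2-subgroup of a group of Janko-four type (S5566). -/

set_option autoImplicit false
open Cfsg BG Subgroup H01.XS

namespace Cfsg.Agent.H06.J
universe u v

/-- the hexad subgroup `K` with `Y = O₂(K) ≅ 2⁴` and `K / Y⟨d⟩ ≅ A₆` -/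
structure Hx {Γ : Type v} [Group Γ] (d : Γ) (K Y : Subgroup Γ) : Prop where
  dK : d ∈ K
  YK : Y ≤ K
  cY : Nat.card Y = 16
  Y2 : ∀ y ∈ Y, y * y = 1
  nY : ∀ k ∈ K, ∀ y ∈ Y, k * y * k⁻¹ ∈ Y
  tr : ∀ y ∈ Y, ∀ y' ∈ Y, y ≠ 1 → y' ≠ 1 → ∃ k ∈ K, k * y * k⁻¹ = y'
  s1 : ∀ J ≤ K, Y ≤ J → d ∈ J → J.relIndex K ≤ 5 → K ≤ J
  s2 : ∀ N ≤ K, Y ≤ N → d ∈ N → (∀ k ∈ K, ∀ n ∈ N, k * n * k⁻¹ ∈ N) → K ≤ N ∨ ∀ g ∈ N, g * g = 1 → g ∈ Y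
  s3 : ∀ E ≤ K, (∀ g ∈ E, g * g = 1) → Nat.card E ≤ 4 * Nat.card ↥(E ⊓ Y)

variable {V : Type u} [AddCommGroup V] [Module (ZMod 2) V] [Finite V] {Γ : Type u} [Group Γ] [Finite Γ]

structure Gj (T : Γ → V →+ V) (d : Γ) (M : Subgroup Γ) (β : V →+ V →+ ZMod 2) (q : V → ZMod 2) : Prop
    extends H01.XF.QF β q where
  one : ∀ v, T 1 v = v
  mul : ∀ x y v, T (x * y) v = T x (T y v)
  fai : ∀ x, (∀ v, T x v = v) → x = 1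
  qT : ∀ x v, q (T x v) = q v
  d3 : d * (d * d) = 1
  hf : ∀ v, v + T d v + T d (T d v) = 0
  dM : d ∈ M
  Md : ∀ g ∈ M, g * d = d * g
  nM : ∀ g, g ∉ M → g * d = d * d * g
  Mi : M.index = 2
  cΓ : Nat.card Γ = 2661120

structure Pj (T : Γ → V →+ V) (d : Γ) (K Y : Subgroup Γ) (q : V → ZMod 2) (B : AddSubgroup V) : Prop where
  cB : Nat.card B = 64
  qB : ∀ v ∈ B, q v = 0
  Bω : ∀ v ∈ B, T d v ∈ B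
  mB : ∀ v, v ∈ B ↔ ∀ y ∈ Y, T y v = v
  KB : ∀ k ∈ K, ∀ v ∈ B, T k v ∈ B
  cm : ∀ y ∈ Y, ∀ v, v + T y v ∈ B
  w64 : ∀ W : AddSubgroup V, (∀ k ∈ K, ∀ v ∈ W, T k v ∈ W) → W = ⊥ ∨ W = ⊤ ∨ Nat.card W = 64

structure Pi (T : Γ → V →+ V) (Y : Subgroup Γ) (B : AddSubgroup V) : Prop where
  c256 : ∀ y ∈ Y, y ≠ 1 → ∀ U : AddSubgroup V, (∀ v ∈ U, T y v = v) → Nat.card U ≤ 256
  two : ∀ y ∈ Y, ∀ y' ∈ Y, y ≠ 1 → y' ≠ 1 → y ≠ y' → ∀ v, T y v = v → T y' v = v → v ∈ B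

structure Pu (T : Γ → V →+ V) (M K Y : Subgroup Γ) (β : V →+ V →+ ZMod 2) (B : AddSubgroup V) : Prop where
  fx : ∀ g, g * g = 1 → (g ∈ M → g ∈ K) → (∀ v ∈ B, T g v = v) → g ∈ Y
  un : ∀ E : Subgroup Γ, E ⊓ M ≤ K → (∀ g ∈ E, g * g = 1) → ∀ B' : AddSubgroup V, (∀ u ∈ B', ∀ v ∈ B', β u v = 0) →
    (∀ g ∈ E, ∀ v ∈ B', T g v = v) → 1024 ≤ Nat.card E * Nat.card B' → B' = B

structure Bj {G : Type u} [Group G] [Finite G] (z : G) (Q : Subgroup G) (f : C_[z] →* Γ) (π : G → Γ) (ν : G → V)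
    (T : Γ → V →+ V) (d : Γ) (M : Subgroup Γ) (β : V →+ V →+ ZMod 2) (q : V → ZMod 2) : Prop where
  gm : Gj T d M β q
  md : H01.XT.Md0 z Q ν
  card : Nat.card Q = 8192
  pf : ∀ x, f x = π x
  sur : ∀ k, ∃ x ∈ C_[z], π x = k
  ker : ∀ x ∈ C_[z], π x = 1 ↔ x ∈ Q
  b : ∀ x ∈ Q, ∀ y ∈ Q, β (ν x) (ν y) = 0 ↔ Commute x y
  sq : ∀ x ∈ Q, q (ν x) = 0 ↔ x * x = 1
  act : ∀ g ∈ C_[z], ∀ x ∈ Q, T (π g) (ν x) = ν (g * x * g⁻¹)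

def HStmt : Prop := ∃ K Y : Subgroup Spor.M22, Hx 1 K Y ∧ K.index = 77

def LStmt : Prop := ∀ {Γ : Type u} [Group Γ] [Finite Γ] {d : Γ} {M : Subgroup Γ} (ρ : M →* Spor.M22)
  {K₀ Y₀ : Subgroup Spor.M22}, d * (d * d) = 1 → d ∈ M → (∀ g ∈ M, g * d = d * g) → d ∈ ⁅M, M⁆ → Function.Surjective ρ →
  (∀ m : M, ρ m = 1 ↔ (m : Γ) ∈ zpowers d) → Hx 1 K₀ Y₀ → K₀.index = 77 →
  ∃ K Y : Subgroup Γ, Hx d K Y ∧ K ≤ M ∧ K.relIndex M = 77 ∧ d ∈ ⁅K, K⁆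

def BStmt : Prop := ∀ {G : Type u} [Group G] [Finite G] (z : G) (P : Subgroup G), IsOfJankoFourTypeWith z P →
  ∃ (Q : Subgroup G) (V : Type u) (_ : AddCommGroup V) (_ : Module (ZMod 2) V) (_ : Finite V) (Γ : Type u) (_ : Group Γ)
    (_ : Finite Γ) (f : C_[z] →* Γ) (π : G → Γ) (ν : G → V) (T : Γ → V →+ V) (d : Γ) (M : Subgroup Γ)
    (β : V →+ V →+ ZMod 2) (q : V → ZMod 2), Bj z Q f π ν T d M β q ∧ d ∈ ⁅M, M⁆ ∧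
    ∃ ρ : M →* Spor.M22, Function.Surjective ρ ∧ ∀ m : M, ρ m = 1 ↔ (m : Γ) ∈ zpowers d

def U1Stmt : Prop := ∀ {V : Type u} [AddCommGroup V] [Module (ZMod 2) V] [Finite V] {Γ : Type u} [Group Γ] [Finite Γ]
  {T : Γ → V →+ V} {d : Γ} {M K Y : Subgroup Γ} {β : V →+ V →+ ZMod 2} {q : V → ZMod 2},
  Gj T d M β q → Hx d K Y → K ≤ M → d ∈ ⁅K, K⁆ → ∃ B, Pj T d K Y q B

def U2Stmt : Prop := ∀ {V : Type u} [AddCommGroup V] [Module (ZMod 2) V] [Finite V] {Γ : Type u} [Group Γ] [Finite Γ]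
  {T : Γ → V →+ V} {d : Γ} {M K Y : Subgroup Γ} {β : V →+ V →+ ZMod 2} {q : V → ZMod 2} {B : AddSubgroup V},
  Gj T d M β q → Hx d K Y → K ≤ M → Pj T d K Y q B → Pi T Y B

def U3Stmt : Prop := ∀ {V : Type u} [AddCommGroup V] [Module (ZMod 2) V] [Finite V] {Γ : Type u} [Group Γ] [Finite Γ]
  {T : Γ → V →+ V} {d : Γ} {M K Y : Subgroup Γ} {β : V →+ V →+ ZMod 2} {q : V → ZMod 2} {B : AddSubgroup V},
  Gj T d M β q → Hx d K Y → K ≤ M → d ∈ ⁅K, K⁆ → Pj T d K Y q B → Pi T Y B → Pu T M K Y β B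

def EStmt : Prop := ∀ {G : Type u} [Group G] [Finite G] {z : G} {Q : Subgroup G}
  {V : Type u} [AddCommGroup V] [Module (ZMod 2) V] [Finite V] {Γ : Type u} [Group Γ] [Finite Γ]
  {f : C_[z] →* Γ} {π : G → Γ} {ν : G → V} {T : Γ → V →+ V} {d : Γ} {M K Y : Subgroup Γ} {β : V →+ V →+ ZMod 2}
  {q : V → ZMod 2} {B : AddSubgroup V} (s : Bj z Q f π ν T d M β q), Hx d K Y → K ≤ M → Pj T d K Y q B →
  ∃ A : Subgroup G, A ≤ C_[z] ∧ (∀ x ∈ A, x * x = 1) ∧ Nat.card A = 2048 ∧ (∀ x ∈ A, π x ∈ Y) ∧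
    ∀ x ∈ C_[z], π x ∈ Y → x ∈ C_(s.md.pull B) → x ∈ A

end Cfsg.Agent.H06.J
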