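import Cfsg.Agent.H06.J0

/-! Assembly of S5566 from the parts of `H06.J0`. -/

set_option autoImplicit false
open Cfsg BG Subgroup H01.XS
open scoped Pointwise

namespace Cfsg.Agent.H06.J
universe u

theorem cm2 {H : Type*} [Group H] {A : Subgroup H} (k : ∀ x ∈ A, x * x = 1) {x y : H} (i : x ∈ A) (j : y ∈ A) :
    x * y = y * x := by
  refine (mul_eq_one_iff_eq_inv.1 (k _ (mul_mem i j))).trans ?_
  rw [mul_inv_rev, ← mul_eq_one_iff_eq_inv.1 (k _ i), ← mul_eq_one_iff_eq_inv.1 (k _ j)]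

theorem syl {Γ : Type*} [Group Γ] [Finite Γ] {M K Y : Subgroup Γ} (c : Nat.card Γ = 2661120) (i : M.index = 2) (KM : K ≤ M)
    (iK : K.relIndex M = 77) (YK : Y ≤ K) (cY : Nat.card Y = 16) :
    ∃ S : Sylow 2 Γ, Y ≤ S ∧ (S : Subgroup Γ) ⊓ M ≤ K := by
  have a1 := M.card_mul_index
  have a2 := card_mul_relIndex KM
  rw [i, c] at a1
  rw [iK] at a2
  have cK : Nat.card K = 17280 := by omega
  have pY : IsPGroup 2 Y := IsPGroup.of_card (n := 4) cY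
  obtain ⟨P, l⟩ := (pY.comap_subtype (K := K)).exists_le_sylow
  have cP : Nat.card (P.1.map K.subtype) = 128 := by
    rw [card_map_of_injective (subtype_injective _), P.card_eq_multiplicity, cK]
    decide +kernel
  obtain ⟨S, l'⟩ := (P.2.map K.subtype).exists_le_sylow
  have cS : Nat.card S = 256 := by rw [S.card_eq_multiplicity, c]; decide +kernel
  refine ⟨S, fun y o => l' ⟨⟨y, YK o⟩, l o, rfl⟩, le_trans (Subgroup.eq_of_le_of_card_ge
    (le_inf l' ((map_subtype_le _).trans KM)) ?_).ge (map_subtype_le _)⟩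
  have b1 := card_dvd_of_le (inf_le_left : (S : Subgroup Γ) ⊓ M ≤ S)
  have b2 := card_dvd_of_le (inf_le_right : (S : Subgroup Γ) ⊓ M ≤ M)
  rw [show Nat.card (S : Subgroup Γ) = 256 from cS] at b1
  rw [show Nat.card M = 1330560 by omega] at b2
  rw [cP]
  exact Nat.le_of_dvd (by norm_num) ((Nat.dvd_gcd b1 b2).trans (by norm_num))

theorem fin (H : HStmt) (L : LStmt.{u}) (Bs : BStmt.{u}) (U1 : U1Stmt.{u}) (U2 : U2Stmt.{u}) (U3 : U3Stmt.{u})
    (E : EStmt.{u}) {G : Type u} [Group G] [Finite G] (hJ : IsOfJankoFourType G) (T : Sylow 2 G) :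
    ∃! V : Subgroup G, V ≤ (T : Subgroup G) ∧ IsElementaryAbelian 2 V ∧ Nat.card ↥V = 2 ^ 11 := by
  obtain ⟨z, P, hJ⟩ := hJ
  obtain ⟨Q, V, _, _, _, Γ, _, _, f, π, ν, T', d, M, β, q, s, dc, ρ, ρs, ρk⟩ := Bs z P hJ
  obtain ⟨K₀, Y₀, h0, i0⟩ := H
  have g := s.gm
  obtain ⟨K, Y, h, KM, iK, dK⟩ := L ρ g.d3 g.dM g.Md dc ρs ρk h0 i0
  obtain ⟨B, p⟩ := U1 g h KM dK
  have k := U3 g h KM dK p (U2 g h KM p)
  obtain ⟨A, Az, A2, cA, AY, mA⟩ := E s h KM p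
  obtain ⟨S, YS, SK⟩ := syl g.cΓ g.Mi KM iK h.YK h.cY
  have m := s.md
  have l := m.lx
  have fs : Function.Surjective f := fun k => by
    obtain ⟨x, j, e⟩ := s.sur k
    exact ⟨⟨x, j⟩, (s.pf _).trans e⟩
  have kf : f.ker = Q.subgroupOf C_[z] := Subgroup.ext fun x => by
    rw [MonoidHom.mem_ker, s.pf, s.ker _ x.2, mem_subgroupOf]
  have pk : IsPGroup 2 f.ker := IsPGroup.of_card (n := 13) (by
    rw [kf, Nat.card_congr (subgroupOfEquivOfLe l.le).toEquiv, s.card]; norm_num)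
  let T₀ : Sylow 2 G := IsPGroup.toSylow ((S.2.comap_of_ker_isPGroup f pk).map C_[z].subtype) (by
    rw [index_map_subtype, index_comap_of_surjective _ fs]
    exact fun o => ((Nat.Prime.dvd_mul Nat.prime_two).1 o).elim S.not_dvd_index l.odd)
  have eT : (T₀ : Subgroup G) = ((S : Subgroup Γ).comap f).map C_[z].subtype := rfl
  have AT : A ≤ T₀ := fun x o => ⟨⟨x, Az o⟩, YS (show f _ ∈ Y from (s.pf ⟨x, Az o⟩).symm ▸ AY x o), rfl⟩
  have un : ∀ A' : Subgroup G, A' ≤ T₀ → (∀ x ∈ A', x * x = 1) → 2048 ≤ Nat.card A' → A' = A := fun A' lA sq c => by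
    rw [eT] at lA
    have lz : A' ≤ C_[z] := lA.trans (map_subtype_le _)
    have a1 := card_inf_mul_relIndex f.ker (A'.subgroupOf C_[z])
    rw [relIndex_ker, kf, show Q.subgroupOf C_[z] ⊓ A'.subgroupOf C_[z] = (Q ⊓ A').subgroupOf C_[z] from rfl,
      Nat.card_congr (subgroupOfEquivOfLe (inf_le_left.trans l.le)).toEquiv,
      Nat.card_congr (subgroupOfEquivOfLe lz).toEquiv] at a1
    have a2 : Nat.card ↥(Q ⊓ A') ≤ 2 * Nat.card (m.push A') := by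
      rw [← m.card_pull]
      exact card_le_of_le fun y o => ⟨o.1, y, o.1, o.2, rfl⟩
    have lS : (A'.subgroupOf C_[z]).map f ≤ S := by
      rintro _ ⟨y, o, rfl⟩
      obtain ⟨t, a, b⟩ := lA o
      exact (Subtype.ext b : t = y) ▸ a
    have s2 : ∀ x ∈ (A'.subgroupOf C_[z]).map f, x * x = 1 := by
      rintro _ ⟨y, o, rfl⟩
      rw [← map_mul, show y * y = 1 from Subtype.ext (sq _ o), map_one]
    have fx : ∀ x ∈ (A'.subgroupOf C_[z]).map f, ∀ v ∈ m.push A', T' x v = v := by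
      rintro _ ⟨y, o, rfl⟩ _ ⟨t, a, a', rfl⟩
      rw [s.pf, s.act _ y.2 t a, show y.1 * t = t * y.1 from cm2 sq o a', mul_inv_cancel_right]
    have a3 : m.push A' = B := k.un _ ((inf_le_inf_right M lS).trans SK) s2 _ (by
        rintro _ ⟨y, o, o', rfl⟩ _ ⟨t, a, a', rfl⟩
        exact (s.b y o t a).2 (cm2 sq o' a')) fx (by nlinarith)
    refine Subgroup.eq_of_le_of_card_ge (fun y o => ?_) (cA.trans_le c)
    have my : f ⟨y, lz o⟩ ∈ (A'.subgroupOf C_[z]).map f := ⟨_, o, rfl⟩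
    refine mA y (lz o) (s.pf ⟨y, lz o⟩ ▸ k.fx _ (s2 _ my) (fun i => SK ⟨lS my, i⟩) (a3 ▸ fx _ my)) fun t a => ?_
    obtain ⟨r, b, b', e⟩ := a3.ge a.2
    rcases m.eq a.1 b e.symm with rfl | rfl
    · exact cm2 sq b' o
    · rw [mul_assoc, cm2 sq b' o, ← mul_assoc, ← mem_cent1.1 (lz o), mul_assoc]
  obtain ⟨x, rfl⟩ := MulAction.exists_smul_eq G T₀ T
  have mT : ∀ y, y ∈ ((x • T₀ : Sylow 2 G) : Subgroup G) ↔ x⁻¹ * y * x ∈ (T₀ : Subgroup G) := fun y => by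
    rw [Sylow.coe_subgroup_smul, mem_pointwise_smul_iff_inv_smul_mem]; simp
  have sq : ∀ y ∈ cj x A, y * y = 1 := fun y o => by
    have := A2 _ (mem_cj.1 o)
    rw [show y * y = x * (x⁻¹ * y * x * (x⁻¹ * y * x)) * x⁻¹ by group, this]; group
  refine ⟨cj x A, ⟨fun y o => (mT y).2 (AT (mem_cj.1 o)), ⟨⟨⟨fun a b => Subtype.ext (cm2 sq a.2 b.2)⟩⟩,
    fun y o => (pow_two y).trans (sq y o)⟩, (card_cj _ _).trans cA⟩, fun W ⟨w1, w2, w3⟩ => ?_⟩
  rw [← un (cj x⁻¹ W) (fun y o => by simpa [mul_assoc] using (mT _).1 (w1 (mem_cj.1 o))) (fun y o => by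
    have := w2.2 _ (mem_cj.1 o)
    rw [show y * y = x⁻¹ * (x⁻¹⁻¹ * y * x⁻¹) ^ 2 * x by rw [pow_two]; group, this]; group)
    (by rw [card_cj, w3]; norm_num), cj_cj]
  ext y; simp [mem_cj]

end Cfsg.Agent.H06.J
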