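import Cfsg.Agent.H06.J0
import Cfsg.Agent.L.Fz0

/-! Interface for `C(t) ≤ N(V)` in groups of Janko-four type (S5568). -/

set_option autoImplicit false
open Cfsg BG Subgroup L.Fz Cfsg.Agent.H06.J

namespace Cfsg.Agent.H06.W
universe u

structure Xc {G : Type u} [Group G] (A M : Subgroup G) (D : Set G) (z : G) : Prop where
  hM : M = N_(A)
  hD : ∀ x ∈ A, x ∈ D ↔ x ≠ 1 ∧ ¬ IsConj z x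
  un : ∀ g : G, cj g A ≤ M → cj g A = A
  ci : ∀ t ∈ D, C_[z] ⊓ C_[t] ≤ M

def MuStmt : Prop := ∀ g ∈ Cfsg.M24, g * g = 1 → g ≠ 1 → 16 ≤ {i | g i ≠ i}.ncard

def PuStmt : Prop := ∀ {G : Type u} [Group G] [Finite G] {M : Subgroup G} {D : Set G} {Ω : Type u} {τ : Ω → Ω → G}
  {σ : M →* Equiv.Perm Ω}, Tr M D τ σ → ∀ I : Subgroup G, (∀ x ∈ I, x ≠ 1 → x ∈ D) → Nat.card I ≤ 4

def ScStmt : Prop := ∀ {G : Type u} [Group G] [Finite G] {A M B : Subgroup G} {D : Set G} {z : G} {Ω : Type u} {τ : Ω → Ω → G}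
  {σ : M →* Equiv.Perm Ω}, Cf A M B D z → Tr M D τ σ → Xc A M D z → (∀ m : M, σ m = 1 → (m : G) ∈ A) →
  (∀ m : M, σ m * σ m = 1 → σ m ≠ 1 → 16 ≤ {i | σ m i ≠ i}.ncard) →
  (∀ I : Subgroup G, (∀ x ∈ I, x ≠ 1 → x ∈ D) → Nat.card I ≤ 4) →
  ∀ t ∈ D, ∀ x ∈ C_[t], ∀ w ∈ cj x A, IsConj z w → w ∈ M → w ∈ A

def DiStmt : Prop := ∀ {G : Type u} [Group G] [Finite G] {A F Y : Subgroup G} {z a b : G}, Y ≤ C_(F) → F ≤ A → A ≤ Y →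
  (∀ x ∈ A, x * x = 1) → (∀ y ∈ Y, cj y A ≠ A → A ⊓ cj y A ≤ F) →
  (∀ y ∈ Y, ∀ w ∈ cj y A, IsConj z w → w ∈ N_(A) → w ∈ A) → a ∈ A → b ∈ A → IsConj z a → IsConj z b → a ∉ F → b ∉ F →
  (∀ y ∈ Y, y * a * y⁻¹ * b ∉ F) → Y ≤ N_(A)

def WStmt : Prop := ∀ {G : Type u} [Group G] [Finite G] {A M B : Subgroup G} {D : Set G} {z : G} {Ω : Type u} {τ : Ω → Ω → G}
  {σ : M →* Equiv.Perm Ω}, Cf A M B D z → Tr M D τ σ → Xc A M D z →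
  (∀ I : Subgroup G, (∀ x ∈ I, x ≠ 1 → x ∈ D) → Nat.card I ≤ 4) →
  (∀ t ∈ D, ∀ x ∈ C_[t], ∀ w ∈ cj x A, IsConj z w → w ∈ M → w ∈ A) → ∀ t ∈ D, C_[t] ≤ M

def HcStmt : Prop := ∃ K Y : Subgroup Spor.M22, Hx 1 K Y ∧ K.index = 77 ∧ ∀ y ∈ Y, y ≠ 1 → ∀ g, g * y = y * g → g ∈ K

def LcStmt : Prop := ∀ {Γ : Type u} [Group Γ] [Finite Γ] {d : Γ} {M : Subgroup Γ} (ρ : M →* Spor.M22)
  {K₀ Y₀ : Subgroup Spor.M22}, d * (d * d) = 1 → d ∈ M → (∀ g ∈ M, g * d = d * g) → d ∈ ⁅M, M⁆ → Function.Surjective ρ →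
  (∀ m : M, ρ m = 1 ↔ (m : Γ) ∈ zpowers d) → Hx 1 K₀ Y₀ → K₀.index = 77 →
  (∀ y ∈ Y₀, y ≠ 1 → ∀ g, g * y = y * g → g ∈ K₀) →
  ∃ K Y : Subgroup Γ, Hx d K Y ∧ K ≤ M ∧ K.relIndex M = 77 ∧ d ∈ ⁅K, K⁆ ∧ ∀ y ∈ Y, y ≠ 1 → ∀ g ∈ M, g * y = y * g → g ∈ K

def C1Stmt : Prop := ∀ {G : Type u} [Group G] [Finite G] {z : G} {Q : Subgroup G}
  {V : Type u} [AddCommGroup V] [Module (ZMod 2) V] [Finite V] {Γ : Type u} [Group Γ] [Finite Γ]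
  {f : C_[z] →* Γ} {π : G → Γ} {ν : G → V} {T : Γ → V →+ V} {d : Γ} {M K Y : Subgroup Γ} {β : V →+ V →+ ZMod 2}
  {q : V → ZMod 2} {B : AddSubgroup V} {A : Subgroup G} (s : Bj z Q f π ν T d M β q), Hx d K Y → K ≤ M → Pj T d K Y q B →
  Pu T M K Y β B → (∀ y ∈ Y, y ≠ 1 → ∀ g ∈ M, g * y = y * g → g ∈ K) →
  (∀ x, x ∈ A ↔ x ∈ C_[z] ∧ π x ∈ Y ∧ x ∈ C_(s.md.pull B)) →
  (∀ g ∈ C_[z], π g ∈ K → g ∈ N_(A)) ∧ ∀ t ∈ A, t ∉ Q → C_[z] ⊓ C_[t] ≤ N_(A)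

def C2Stmt : Prop := ∀ {V : Type u} [AddCommGroup V] [Module (ZMod 2) V] [Finite V] {Γ : Type u} [Group Γ] [Finite Γ]
  {T : Γ → V →+ V} {d : Γ} {M K Y : Subgroup Γ} {β : V →+ V →+ ZMod 2} {q : V → ZMod 2} {B : AddSubgroup V},
  Gj T d M β q → d ∈ ⁅M, M⁆ → Pj T d K Y q B → ∀ v ∈ B, v ≠ 0 → ∀ P : Subgroup Γ, (∀ g ∈ P, T g v = v) →
  ¬ 7 ∣ Nat.card P ∧ ¬ 11 ∣ Nat.card P ∧ ¬ 9 ∣ Nat.card P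

end Cfsg.Agent.H06.W
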