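import Mathlib
import Cfsg.Agent.H25.BE3
import Cfsg.Agent.H08.StronglyEmbedded

/-!
# Bender's theorem: the reduction to a simple minimal counterexample

* `H06.BC.gen`: `Main` implies the conclusion `BT ⊤ a Q` for every action in which each involution fixes exactly one point
* `H06.core_of_main : H25.BE.Main → H25.BE.Core`
-/

set_option autoImplicit false

open Cfsg BG MulAction H25.BE

namespace H06

universe u

namespace BC

/-- the general statement for groups of order `n` -/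
def Gen (n : ℕ) : Prop :=
  ∀ (G Ω : Type u) [Group G] [Finite G] [MulAction G Ω] (φ : G → Ω), Nat.card G = n → SE φ →
    (∀ x : Ω, ∃ t : G, orderOf t = 2 ∧ φ t = x) → R2in (⊤ : Subgroup G) → (∃ x y : Ω, x ≠ y) →
    ∀ a : Ω, ∃ Q, BT (⊤ : Subgroup G) a Q

variable {G Ω : Type u} [Group G] [Finite G] [MulAction G Ω] {φ : G → Ω}

theorem sub (ih : ∀ m < Nat.card G, Gen.{u} m) (se : SE φ) {M : Subgroup G} (hM : M ≠ ⊤) (r2 : R2in M) {s : G} (hs : s ∈ M)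
    (h2 : orderOf s = 2) (mv : ∃ g ∈ M, g • φ s ≠ φ s) : ∃ Q, BT M (φ s) Q := by
  classical
  have eo : ∀ y, y ∈ orbit M (φ s) ↔ y ∈ Orb M (φ s) := fun y =>
    ⟨fun ⟨g, e⟩ => ⟨g, g.2, e⟩, fun ⟨g, hg, e⟩ => ⟨⟨g, hg⟩, e⟩⟩
  have mem : ∀ t : M, orderOf t = 2 → φ t ∈ orbit M (φ s) := fun t ht => by
    by_cases e : φ s = φ t
    · rw [← e]; exact mem_orbit_self _
    · obtain ⟨w, hw, -, -, e1, -⟩ := se.swap h2 ((Subgroup.orderOf_coe t).trans ht) hs t.2 e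
      exact ⟨⟨w, hw⟩, e1⟩
  let a : orbit M (φ s) := ⟨φ s, mem_orbit_self _⟩
  let ψ : M → orbit M (φ s) := fun t => if h : φ t ∈ orbit M (φ s) then ⟨φ t, h⟩ else a
  have hψ : ∀ t : M, orderOf t = 2 → (ψ t : Ω) = φ t := fun t ht => by simp only [ψ, dif_pos (mem t ht)]
  obtain ⟨Q, hQ⟩ := ih (Nat.card M) (by
      have := M.card_mul_index
      have h1 : M.index ≠ 1 := fun e => hM (Subgroup.index_eq_one.1 e)
      have h0 : M.index ≠ 0 := Subgroup.index_ne_zero_of_finite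
      have : 0 < Nat.card M := Nat.card_pos
      have : 2 ≤ M.index := by omega
      nlinarith) M (orbit M (φ s)) ψ rfl
    (fun t ht x => by
      rw [Subtype.ext_iff, Subtype.ext_iff, hψ t ht]
      exact se t ((Subgroup.orderOf_coe t).trans ht) x)
    (by
      rintro ⟨_, g, rfl⟩
      have h : orderOf (⟨g * s * (g : G)⁻¹, M.mul_mem (M.mul_mem g.2 hs) (M.inv_mem g.2)⟩ : M) = 2 :=
        (Subgroup.orderOf_coe _).symm.trans (conj2 h2 g)
      exact ⟨_, h, Subtype.ext ((hψ _ h).trans (se.eqv h2 g))⟩)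
    (by
      obtain ⟨x, hx, y, hy, h1, h3, h4, h5⟩ := r2
      exact ⟨⟨x, hx⟩, trivial, ⟨y, hy⟩, trivial, (Subgroup.orderOf_coe _).symm.trans h1, (Subgroup.orderOf_coe _).symm.trans h3,
        fun e => h4 (congrArg Subtype.val e), Subtype.ext h5⟩)
    (by
      obtain ⟨g, hg, e⟩ := mv
      exact ⟨⟨g • φ s, ⟨g, hg⟩, rfl⟩, a, fun h => e (congrArg Subtype.val h)⟩) a
  have ot : ∀ y : orbit M (φ s), y ∈ Orb (⊤ : Subgroup M) a := fun ⟨_, g, e⟩ => ⟨g, trivial, Subtype.ext e⟩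
  have ek : ∀ g : M, g ∈ Ker (⊤ : Subgroup M) a ↔ (g : G) ∈ Ker M (φ s) := fun g => by
    rw [mem_Ker, mem_Ker]
    exact ⟨fun h => ⟨g.2, fun y hy => congrArg Subtype.val (h.2 ⟨y, (eo y).2 hy⟩ (ot _))⟩,
      fun h => ⟨trivial, fun y _ => Subtype.ext (h.2 y ((eo y).1 y.2))⟩⟩
  refine ⟨Q.map M.subtype, fun g hg => ⟨⟨g, hg.1⟩, hQ.ker_le ((ek _).2 hg), rfl⟩, ?_, ?_, ?_, ?_, ?_⟩
  · rintro _ ⟨q, hq, rfl⟩
    exact ⟨q.2, congrArg Subtype.val (hQ.fix hq)⟩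
  · refine le_norm_iff.2 ?_
    rintro g hg _ ⟨q, hq, rfl⟩
    exact ⟨_, conj_mem_of_norm (hQ.norm (x := ⟨g, hg.1⟩) ⟨trivial, Subtype.ext hg.2⟩) hq, rfl⟩
  · intro x hx y hy h1 h3
    obtain ⟨q, hq, e⟩ := hQ.trans ⟨x, (eo x).2 hx⟩ (ot _) ⟨y, (eo y).2 hy⟩ (ot _) (fun e => h1 (congrArg Subtype.val e))
      fun e => h3 (congrArg Subtype.val e)
    exact ⟨q, ⟨q, hq, rfl⟩, congrArg Subtype.val e⟩
  · rintro x hx h1 _ ⟨q, hq, rfl⟩ e
    exact (ek q).1 (hQ.free ⟨x, (eo x).2 hx⟩ (ot _) (fun e => h1 (congrArg Subtype.val e)) q hq (Subtype.ext e))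
  · rintro _ ⟨q, hq, rfl⟩
    obtain ⟨k, hk⟩ := hQ.two q hq
    exact ⟨k, (ek _).1 hk⟩

theorem pow_mul_mem {Q : Subgroup G} {q y : G} (hq : q ∈ Q) (hy : y ∈ N_(Q)) (n : ℕ) : (q * y) ^ n * (y ^ n)⁻¹ ∈ Q := by
  induction n with
  | zero => simp
  | succ n ih =>
    have : (q * y) ^ (n + 1) * (y ^ (n + 1))⁻¹ = q * (y * ((q * y) ^ n * (y ^ n)⁻¹) * y⁻¹) := by
      rw [pow_succ' (q * y), pow_succ' y]; group
    rw [this]
    exact Q.mul_mem hq (conj_mem_of_norm hy ih)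

theorem mem_of_two_pow {Q : Subgroup G} {w : G} (ho : Odd (orderOf w)) (k : ℕ) (h : w ^ 2 ^ k ∈ Q) : w ∈ Q := by
  induction k with
  | zero => simpa using h
  | succ k ih =>
    refine ih (mem_of_sq_mem (ho.of_dvd_nat (orderOf_pow_dvd _)) ?_)
    rwa [← pow_add, ← two_mul, ← pow_succ']

theorem step (hm : Main.{u, u}) (n : ℕ) (ih : ∀ m < n, Gen.{u} m) : Gen.{u} n := by
  intro G Ω _ _ _ φ hn se surj r2 nt a
  subst hn
  classical
  have tr : ∀ x y : Ω, ∃ g : G, g • x = y := fun x y => by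
    by_cases e : x = y
    · exact ⟨1, by rw [one_smul, e]⟩
    obtain ⟨s, hs, rfl⟩ := surj x
    obtain ⟨t, ht, rfl⟩ := surj y
    obtain ⟨w, -, -, -, h2, -⟩ := se.swap (L := ⊤) hs ht trivial trivial e
    exact ⟨w, h2⟩
  have ex : ∀ x : Ω, ∃ y, y ≠ x := fun x => by
    obtain ⟨a, b, hab⟩ := nt
    by_cases e : a = x
    · exact ⟨b, e ▸ hab.symm⟩
    · exact ⟨a, e⟩
  have ot : ∀ x y : Ω, y ∈ Orb (⊤ : Subgroup G) x := fun x y => by obtain ⟨g, hg⟩ := tr x y; exact ⟨g, trivial, hg⟩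
  by_cases fa : ∀ g : G, (∀ x : Ω, g • x = x) → g = 1
  swap
  · let π := (toPermHom G Ω).rangeRestrict
    have πs : Function.Surjective π := MonoidHom.rangeRestrict_surjective _
    have πa : ∀ (g : G) (x : Ω), π g • x = g • x := fun _ _ => rfl
    have π1 : ∀ g : G, π g = 1 ↔ ∀ x : Ω, g • x = x := fun g =>
      ⟨fun e x => by rw [← πa, e, one_smul], fun h => Subtype.ext (Equiv.ext h)⟩
    have : Finite (toPermHom G Ω).range := Finite.of_surjective π πs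
    have o2 : ∀ t : G, orderOf t = 2 → orderOf (π t) = 2 := fun t ht => by
      refine orderOf_eq_prime (by rw [← map_pow, sq, sq2 ht, map_one]) fun e => ?_
      obtain ⟨y, hy⟩ := ex (φ t)
      exact se.move ht hy ((π1 t).1 e y)
    have lift : ∀ x : (toPermHom G Ω).range, orderOf x = 2 → ∃ t : G, orderOf t = 2 ∧ π t = x := fun x hx => by
      obtain ⟨g, rfl⟩ := πs x
      obtain ⟨y, hy⟩ := ex a
      have g2 : ∀ z : Ω, (g * g) • z = z := (π1 _).1 (by rw [map_mul, sq2 hx])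
      have ho := se.odd_elt2 hy (g2 y) (g2 a)
      have e : π (g ^ orderOf (g * g)) = π g := by
        obtain ⟨k, hk⟩ := ho
        rw [hk, map_pow, pow_succ, pow_mul, sq, sq2 hx, one_pow, one_mul]
      refine ⟨g ^ orderOf (g * g), orderOf_eq_prime ?_ fun h => ne2 hx ?_, e⟩
      · rw [← pow_mul, mul_comm, pow_mul, sq, pow_orderOf_eq_one]
      · rw [← e, h, map_one]
    let ψ : (toPermHom G Ω).range → Ω := fun x => if h : orderOf x = 2 then φ (lift x h).choose else a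
    have sψ : SE ψ := fun x hx y => by
      obtain ⟨h1, h3⟩ := (lift x hx).choose_spec
      simp only [ψ, dif_pos hx]
      rw [← se _ h1 y, ← πa, h3]
    obtain ⟨Q, hQ⟩ := ih (Nat.card (toPermHom G Ω).range) (by
        refine lt_of_le_of_ne (Nat.card_le_card_of_surjective π πs) fun e => fa fun g hg => ?_
        exact (πs.bijective_of_nat_card_le e.ge).1 (((π1 g).2 hg).trans (map_one π).symm)) _ Ω ψ rfl sψ
      (fun x => by
        obtain ⟨t, ht, rfl⟩ := surj x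
        exact ⟨π t, o2 t ht, sψ.eq_of_fix (o2 t ht) (se.self ht)⟩)
      (by
        obtain ⟨s, -, t, -, h1, h3, h4, h5⟩ := r2
        refine ⟨π s, trivial, π t, trivial, o2 s h1, o2 t h3, fun e => ne2 (o2 _ (mul2 h1 h3 h4 h5)) ?_, h5.map π⟩
        rw [map_mul, e, sq2 (o2 t h3)]) nt a
    have ot' : ∀ y : Ω, y ∈ Orb (⊤ : Subgroup (toPermHom G Ω).range) a := fun y => by
      obtain ⟨g, hg⟩ := tr a y; exact ⟨π g, trivial, hg⟩
    have ek : ∀ g : G, g ∈ Ker (⊤ : Subgroup G) a ↔ π g ∈ Ker (⊤ : Subgroup (toPermHom G Ω).range) a := fun g => by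
      rw [mem_Ker, mem_Ker]
      exact ⟨fun h => ⟨trivial, fun y _ => h.2 y (ot a y)⟩, fun h => ⟨trivial, fun y _ => h.2 y (ot' y)⟩⟩
    refine ⟨Q.comap π, fun g hg => hQ.ker_le ((ek g).1 hg), fun q hq => ⟨trivial, hQ.fix hq⟩, le_norm_iff.2 fun g hg q hq => ?_,
      fun x _ y _ h1 h3 => ?_, fun x _ h1 q hq e => (ek q).2 (hQ.free x (ot' x) h1 _ hq e), fun q hq => ?_⟩
    · have := conj_mem_of_norm (hQ.norm (x := π g) ⟨trivial, hg.2⟩) hq
      rwa [← map_inv, ← map_mul, ← map_mul] at this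
    · obtain ⟨q, hq, e⟩ := hQ.trans x (ot' x) y (ot' y) h1 h3
      obtain ⟨g, rfl⟩ := πs q
      exact ⟨g, hq, e⟩
    · obtain ⟨k, hk⟩ := hQ.two _ hq
      exact ⟨k, (ek _).2 (by rwa [map_pow])⟩
  by_cases si : IsSimpleGroup G
  · exact hm G Ω φ ⟨se, surj, si, r2, nt, fun M hM r s hs h2 mv => sub ih se hM r hs h2 mv⟩ a
  obtain ⟨s, -, t, -, h1, h3, h4, h5⟩ := id r2
  obtain ⟨M, nM, M0, M1⟩ : ∃ M : Subgroup G, M.Normal ∧ M ≠ ⊥ ∧ M ≠ ⊤ := by
    by_contra! h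
    have : Nontrivial G := ⟨s, t, h4⟩
    exact si ⟨fun M hM => (em (M = ⊥)).imp_right (h M hM)⟩
  have nN : ∀ g : G, g ∈ N_(M) := fun g => (Subgroup.normalizer_eq_top_iff.2 nM).ge trivial
  obtain ⟨w, hw, w2⟩ : ∃ w ∈ M, orderOf w = 2 := by
    by_contra! h
    have := se.four_le h1 h3 h4 h5 (nN s) (nN t) (odd_of_no_invol h)
    refine M0 ((Subgroup.eq_bot_iff_forall M).2 fun g hg => fa g fun x => ?_)
    obtain ⟨c, rfl⟩ := tr (φ s) x
    have e : (c⁻¹ * g * c) • φ s = φ s := this (nM.conj_mem' g hg c)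
    rwa [mul_smul, mul_smul, inv_smul_eq_iff] at e
  have all : ∀ v : G, orderOf v = 2 → v ∈ M := fun v hv => by
    obtain ⟨y, hy⟩ := ex (φ w)
    obtain ⟨c, hc, rfl⟩ := surj y
    obtain ⟨g, -, e⟩ := se.pd.isConj (L := ⊤) hc w2 trivial trivial hy w2 hv trivial trivial
    exact e ▸ nM.conj_mem w hw g
  obtain ⟨c, hc, rfl⟩ := surj a
  have om : ∀ y : Ω, y ∈ Orb M (φ c) := fun y => by
    by_cases e : φ c = y
    · exact e ▸ mem_Orb_self M _
    obtain ⟨d, hd, rfl⟩ := surj y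
    obtain ⟨w, -, hw, -, h2, -⟩ := se.swap (L := ⊤) hc hd trivial trivial e
    exact ⟨w, all w hw, h2⟩
  obtain ⟨x, hx⟩ := ex (φ c)
  obtain ⟨Q, hQ⟩ := sub ih se M1 ⟨s, all s h1, t, all t h3, h1, h3, h4, h5⟩ (all c hc) hc (by
    obtain ⟨g, hg, e⟩ := om x
    exact ⟨g, hg, e ▸ hx⟩)
  have k1 : ∀ {L : Subgroup G} {g : G}, (∀ y, y ∈ Orb L (φ c)) → g ∈ Ker L (φ c) → g = 1 := fun h hg =>
    fa _ fun y => (mem_Ker.1 hg).2 y (h y)
  refine ⟨Q, fun g hg => k1 (ot _) hg ▸ Q.one_mem, fun q hq => ⟨trivial, hQ.fix hq⟩, le_norm_iff.2 fun g hg q hq => ?_,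
    fun x _ y _ => hQ.trans x (om x) y (om y), fun x _ h1 q hq e => k1 om (hQ.free x (om x) h1 q hq e) ▸ Subgroup.one_mem _,
    fun q hq => ?_⟩
  · have m1 : g * q * g⁻¹ ∈ M ⊓ stabilizer G (φ c) := ⟨nM.conj_mem q (hQ.leM hq) g,
      (stabilizer G (φ c)).mul_mem ((stabilizer G (φ c)).mul_mem hg.2 (hQ.fix hq)) ((stabilizer G (φ c)).inv_mem hg.2)⟩
    obtain ⟨r, hr, e⟩ := hQ.trans x (om x) ((g * q * g⁻¹) • x) (om _) hx fun e => hx
      ((smul_left_cancel_iff _).1 (e.trans (m1.2 : _ = _).symm))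
    obtain ⟨k, hk⟩ := hQ.two q hq
    have := pow_mul_mem (Q.inv_mem hr) (hQ.norm m1) (2 ^ k)
    rw [conj_pow, k1 om hk, mul_one, mul_inv_cancel, inv_one, mul_one] at this
    have := mem_of_two_pow (se.odd_elt2 hx (by rw [mul_smul, ← e, inv_smul_smul])
      (by rw [mul_smul, (m1.2 : _ = _), hQ.fix (Q.inv_mem hr)])) k this
    exact (Q.mul_mem_cancel_left (Q.inv_mem hr)).1 this
  · obtain ⟨k, hk⟩ := hQ.two q hq
    exact ⟨k, k1 om hk ▸ Subgroup.one_mem _⟩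

theorem gen (hm : Main.{u, u}) (n : ℕ) : Gen.{u} n := Nat.strong_induction_on n (step hm)

end BC

theorem core_of_main (hm : Main.{u, u}) : Core.{u} := by
  intro G _ _ H hH r2
  obtain ⟨z, hz, z2⟩ := H08.SE.exists_invol hH
  have h0 : ∀ g : G, g * z * g⁻¹ ∈ H → g ∈ H := fun g => H08.SE.mem_of_conj_mem hH hz z2
  obtain ⟨g₀, hg₀⟩ := H08.SE.exists_notMem hH
  have e1 : ∀ g : G, (g : G ⧸ H) = ((1 : G) : G ⧸ H) ↔ g ∈ H := fun g => by rw [eq_comm, QuotientGroup.eq]; simp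
  have sm : ∀ x g : G, x • (g : G ⧸ H) = ((x * g : G) : G ⧸ H) := fun _ _ => rfl
  obtain ⟨Q, hQ⟩ := BC.gen hm _ G (G ⧸ H) (H05.cosetPt H z) rfl
    (fun t ht x => by
      obtain ⟨g, rfl⟩ := isConj_iff.1 (H08.SE.isConj hH z2 ht)
      obtain ⟨y, rfl⟩ := QuotientGroup.mk_surjective x
      rw [H05.cosetPt_conj h0 hz, H05.smul_coset_iff, QuotientGroup.eq]
      exact ⟨fun h => h0 _ (by simpa [mul_assoc] using h), fun h => by
        simpa [mul_assoc] using H.mul_mem (H.mul_mem h hz) (H.inv_mem h)⟩)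
    (fun x => by
      obtain ⟨y, rfl⟩ := QuotientGroup.mk_surjective x
      exact ⟨_, conj2 z2 y, H05.cosetPt_conj h0 hz y⟩)
    (by
      obtain ⟨x, y, h1, h2, h3, h4, h5, h6⟩ := r2
      exact ⟨x, trivial, y, trivial, orderOf_eq_prime (by rw [sq, h4]) h1, orderOf_eq_prime (by rw [sq, h5]) h2, h3, h6⟩)
    ⟨g₀, (1 : G), fun e => hg₀ ((e1 _).1 e)⟩ ((1 : G) : G ⧸ H)
  have ot : ∀ g : G, (g : G ⧸ H) ∈ Orb (⊤ : Subgroup G) ((1 : G) : G ⧸ H) := fun g => ⟨g, trivial, by rw [sm, mul_one]⟩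
  have st : ∀ g : G, g ∈ stabilizer G ((1 : G) : G ⧸ H) ↔ g ∈ H := fun g => by rw [mem_stabilizer_iff, sm, mul_one, e1]
  have ek : ∀ g ∈ Ker (⊤ : Subgroup G) ((1 : G) : G ⧸ H), g ∈ H.normalCore := fun g hg b => by
    have := H05.smul_coset_iff.1 ((mem_Ker.1 hg).2 _ (ot b⁻¹))
    rwa [inv_inv] at this
  refine ⟨Q, fun q hq => (st q).1 (hQ.fix hq), fun h hh q hq => conj_mem_of_norm (hQ.norm ⟨trivial, (st h).2 hh⟩) hq,
    fun g₁ g₂ h1 h2 => ?_, fun g hg q hq e => ek q (hQ.free _ (ot g) (fun e => hg ((e1 g).1 e)) q hq ?_), fun q hq => ?_⟩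
  · obtain ⟨q, hq, e⟩ := hQ.trans _ (ot g₁) _ (ot g₂) (fun e => h1 ((e1 _).1 e)) fun e => h2 ((e1 _).1 e)
    exact ⟨q, hq, QuotientGroup.eq.1 e.symm⟩
  · exact H05.smul_coset_iff.2 (by rwa [mul_assoc])
  · obtain ⟨k, hk⟩ := hQ.two q hq
    exact ⟨k, ek _ hk⟩

end H06
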