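import Mathlib
import Cfsg.Agent.L.Fz0
import Cfsg.Agent.S0407
import Cfsg.Agent.S0363
import Cfsg.Agent.S0369

/-! Part S of the cluster S5446 / S5448: the octads of the 24-set form a Steiner system. -/

set_option autoImplicit false
open Finset
open scoped Pointwise symmDiff

namespace Cfsg.Agent.H06.FzS
universe u

section
variable {Ω C : Type*} [DecidableEq Ω] [CommGroup C] {v : Ω → C}

theorem sd (sq : ∀ x : C, x * x = 1) (S T : Finset Ω) : ∏ i ∈ S ∆ T, v i = (∏ i ∈ S, v i) * ∏ i ∈ T, v i := by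
  have a : S ∪ T = S ∆ T ∪ S ∩ T := by ext x; simp [mem_symmDiff]; tauto
  have d : Disjoint (S ∆ T) (S ∩ T) := by
    rw [disjoint_left]; intro x; simp [mem_symmDiff]; tauto
  rw [← prod_union_inter, a, prod_union d, mul_assoc, sq, mul_one]

theorem cd (S T : Finset Ω) : (S ∆ T).card + 2 * (S ∩ T).card = S.card + T.card := by
  have a : S ∪ T = S ∆ T ∪ S ∩ T := by ext x; simp [mem_symmDiff]; tauto
  have d : Disjoint (S ∆ T) (S ∩ T) := by
    rw [disjoint_left]; intro x; simp [mem_symmDiff]; tauto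
  have := card_union_add_card_inter S T
  rw [a, card_union_of_disjoint d] at this
  omega

theorem st [Fintype Ω] [Finite C] (cΩ : Fintype.card Ω = 24) (cC : Nat.card C = 2048) (sq : ∀ x : C, x * x = 1) {D : Set C}
    (cD : D.ncard = 276) (D1 : 1 ∉ D) (h2 : ∀ S : Finset Ω, S.card = 2 → ∏ i ∈ S, v i ∈ D)
    (h4 : ∀ S : Finset Ω, S.card = 4 → ∏ i ∈ S, v i ∉ D ∧ ∏ i ∈ S, v i ≠ 1) :
    IsSteinerSystem 5 8 {S : Finset Ω | S.card = 8 ∧ ∏ i ∈ S, v i = 1} := by
  classical
  have h6 : ∀ S : Finset Ω, S.card = 6 → ∏ i ∈ S, v i ≠ 1 := fun S c e => by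
    obtain ⟨T, l, cT⟩ := exists_subset_card_eq (show 2 ≤ S.card by omega)
    have a := prod_sdiff (f := v) l
    rw [e] at a
    have b : ∏ i ∈ S \ T, v i = ∏ i ∈ T, v i := by
      rw [← mul_one (∏ i ∈ S \ T, v i), ← sq (∏ i ∈ T, v i), ← mul_assoc, a, one_mul]
    exact (h4 _ (by rw [card_sdiff_of_subset l]; omega)).1 (b ▸ h2 T cT)
  have key : ∀ S T : Finset Ω, S.card = T.card → S.card ≤ (S ∩ T).card + 3 → ∏ i ∈ S, v i = ∏ i ∈ T, v i → S = T := fun S T c k e => by
    have a := sd (v := v) sq S T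
    rw [e, sq] at a
    have b := cd S T
    have b' := card_le_card (inter_subset_left : S ∩ T ⊆ S)
    have : (S ∆ T).card = 0 ∨ (S ∆ T).card = 2 ∨ (S ∆ T).card = 4 ∨ (S ∆ T).card = 6 := by omega
    rcases this with o | o | o | o
    · exact symmDiff_eq_bot.1 (card_eq_zero.1 o)
    · exact absurd (a ▸ h2 _ o) D1
    · exact absurd a (h4 _ o).2
    · exact absurd a (h6 _ o)
  have on : ∀ (p : Ω) (x : C), x ∉ D → x ≠ 1 → ∃ T : Finset Ω, T.card = 4 ∧ p ∈ T ∧ ∏ i ∈ T, v i = x := fun p x xD x1 => by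
    let F : Finset Ω → C := fun U => ∏ i ∈ insert p U, v i
    let P := powersetCard 3 (univ.erase p)
    have pn : ∀ U ∈ P, p ∉ U ∧ (insert p U).card = 4 := fun U m => by
      obtain ⟨a, b⟩ := mem_powersetCard.1 m
      have : p ∉ U := fun k => by simpa using a k
      exact ⟨this, by rw [card_insert_of_notMem this, b]⟩
    have ij : Set.InjOn F P := fun U a W b e => by
      have := key _ _ ((pn U a).2.trans (pn W b).2.symm) (by
        have := card_pos.2 ⟨p, mem_inter.2 ⟨mem_insert_self p U, mem_insert_self p W⟩⟩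
        rw [(pn U a).2]; omega) e
      rw [← erase_insert (pn U a).1, this, erase_insert (pn W b).1]
    have cP : (P : Set (Finset Ω)).ncard = 1771 := by
      rw [Set.ncard_coe_finset, card_powersetCard, card_erase_of_mem (mem_univ p), card_univ, cΩ]; decide
    have cZ := Set.ncard_add_ncard_compl (insert 1 D)
    rw [Set.ncard_insert_of_notMem D1, cD, cC] at cZ
    have l : F '' P ⊆ (insert 1 D)ᶜ := by
      rintro _ ⟨U, m, rfl⟩ (k | k)
      · exact (h4 _ (pn U m).2).2 k
      · exact (h4 _ (pn U m).2).1 k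
    obtain ⟨U, m, e⟩ := (Set.eq_of_subset_of_ncard_le l (by rw [Set.ncard_image_of_injOn ij]; omega)).ge
      (show x ∈ (insert 1 D)ᶜ by rintro (k | k); exacts [x1 k, xD k])
    exact ⟨_, (pn U m).2, mem_insert_self p U, e⟩
  refine ⟨fun b m => m.1, fun s c => ?_⟩
  obtain ⟨p, m⟩ := card_pos.1 (show 0 < s.card by omega)
  have c4 : (s.erase p).card = 4 := by rw [card_erase_of_mem m, c]
  obtain ⟨T, cT, pT, e⟩ := on p _ (h4 _ c4).1 (h4 _ c4).2
  have dj : Disjoint (s.erase p) T := by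
    by_contra n
    have := card_pos.2 (not_disjoint_iff_nonempty_inter.1 n)
    exact notMem_erase p s (key _ _ (c4.trans cT.symm) (by omega) e.symm ▸ pT)
  have sub : s ⊆ s.erase p ∪ T := fun x k => by
    by_cases o : x = p
    · exact mem_union_right _ (o ▸ pT)
    · exact mem_union_left _ (mem_erase.2 ⟨o, k⟩)
  have o8 : (s.erase p ∪ T).card = 8 ∧ ∏ i ∈ s.erase p ∪ T, v i = 1 :=
    ⟨by rw [card_union_of_disjoint dj, c4, cT], by rw [prod_union dj, e, sq]⟩
  refine ⟨_, ⟨o8, sub⟩, fun b ⟨k, l⟩ => key _ _ (k.1.trans o8.1.symm) ?_ (k.2.trans o8.2.symm)⟩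
  have := card_le_card (subset_inter l sub)
  rw [k.1]; omega
end

theorem s : L.Fz.SStmt.{u} := by
  intro G _ _ A M B D z Ω τ σ h n t
  classical
  have : Finite Ω := Nat.finite_of_card_ne_zero (by rw [t.card]; norm_num)
  have := Fintype.ofFinite Ω
  have cΩ : Fintype.card Ω = 24 := Nat.card_eq_fintype_card.symm.trans t.card
  obtain ⟨o⟩ : Nonempty Ω := Fintype.card_pos_iff.1 (by omega)
  have sq : ∀ x : A, x * x = 1 := fun x => Subtype.ext (h.sq x x.2)
  let _ : CommGroup A := { (inferInstance : Group A) with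
    mul_comm := fun x y => by
      have i : ∀ x : A, x⁻¹ = x := fun x => inv_eq_of_mul_eq_one_right (sq x)
      rw [← i (x * y), mul_inv_rev, i, i] }
  have τA : ∀ i j, τ i j ∈ A := fun i j => by
    by_cases e : i = j
    · rw [e, t.refl]; exact A.one_mem
    · exact (h.DA _ (t.mem i j e)).1
  let v : Ω → A := fun i => ⟨τ o i, τA o i⟩
  have vv : ∀ i j, ((v i * v j : A) : G) = τ i j := fun i j => by
    show τ o i * τ o j = _
    rw [t.symm o i, t.mul]
  have S := st (v := v) (D := {x : A | (x : G) ∈ D}) cΩ h.cA sq (by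
      rw [← n.d, ← Set.ncard_image_of_injective _ Subtype.val_injective]
      congr 1
      ext x
      exact ⟨by rintro ⟨y, a, rfl⟩; exact a, fun a => ⟨⟨x, (h.DA x a).1⟩, a, rfl⟩⟩)
    (fun a => (h.DA _ a).2 rfl) (fun S c => by
      obtain ⟨i, j, e, rfl⟩ := card_eq_two.1 c
      rw [prod_pair e, Set.mem_setOf_eq, vv]; exact t.mem i j e) fun S c => by
      obtain ⟨i, j, k, l, a1, a2, a3, a4, a5, a6, rfl⟩ := card_eq_four.1 c
      have e : ((∏ x ∈ ({i, j, k, l} : Finset Ω), v x : A) : G) = τ i j * τ k l := by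
        rw [prod_insert (by simp [*]), prod_insert (by simp [*]), prod_pair a6, ← mul_assoc, Subgroup.coe_mul, vv, vv]
      refine ⟨by rw [Set.mem_setOf_eq, e]; exact t.non i j k l a1 a2 a3 a4 a5 a6, fun q => ?_⟩
      rw [q] at e
      have := t.inj i j k l a1 (by
        rw [← mul_one (τ i j), ← h.sq _ (τA k l), ← mul_assoc, ← e]; simp)
      tauto
  obtain ⟨e, he⟩ := Cfsg.Agent.S0407.result cΩ (show Fintype.card GolayPt = 24 by decide) S Cfsg.Agent.S0363.result
  have iv : ∀ m : M, ∀ b : Finset Ω, b.card = 8 ∧ ∏ i ∈ b, v i = 1 →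
      (b.image (σ m)).card = 8 ∧ ∏ i ∈ b.image (σ m), v i = 1 := fun m b k => by
    refine ⟨(card_image_of_injective _ (σ m).injective).trans k.1, ?_⟩
    let ψ : A →* A := ((MulAut.conj (m : G)).toMonoidHom.comp A.subtype).codRestrict A fun x => h.nM _ m.2 _ x.2
    have a : ∀ i, v (σ m i) = v (σ m o) * ψ (v i) := fun i => Subtype.ext (by
      show τ o (σ m i) = τ o (σ m o) * ((m : G) * τ o i * (m : G)⁻¹)
      rw [t.act, t.mul])
    rw [prod_image fun _ _ _ _ q => (σ m).injective q]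
    rw [prod_congr rfl fun i _ => a i, prod_mul_distrib, ← map_prod, k.2, map_one, mul_one, prod_const, k.1, show 8 = 2 * 4 from rfl, pow_mul, pow_two, sq,
      one_pow]
  have le : ∀ m : M, e.permCongr (σ m) • octads ⊆ octads := fun m => by
    rw [← he]
    rintro _ ⟨_, ⟨b, k, rfl⟩, rfl⟩
    refine ⟨_, iv m b k, ?_⟩
    show (b.image (σ m)).image e = (b.image e).image fun x => e.permCongr (σ m) x
    rw [image_image, image_image]
    refine image_congr fun x _ => ?_
    show e (σ m x) = e (σ m (e.symm (e x)))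
    rw [e.symm_apply_apply]
  refine ⟨e, fun m => ?_⟩
  rw [Cfsg.Agent.S0369.result]
  exact Set.eq_of_subset_of_ncard_le (le m) (Set.ncard_smul_set _ _).ge

end Cfsg.Agent.H06.FzS
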