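import Cfsg.Agent.S5568

/-! Subgroups of a `2¹¹` without conjugates of `z` have order at most 4 (Janko-four type). -/

set_option autoImplicit false
open Cfsg BG Subgroup H01.XS Cfsg.Agent.H06.J H20.FtW Cfsg.Agent.H23.K

namespace Cfsg.Agent.H06.W
universe u

theorem pu7 {G : Type u} [Group G] [Finite G] [sG : IsSimpleGroup G] (hG : ¬ IsMulCommutative G) (z : G)
    (hJ : IsOfJankoFourTypeAt z) : ∀ V : Subgroup G, IsElementaryAbelian 2 V → Nat.card V = 2 ^ 11 →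
    ∀ I ≤ V, (∀ x ∈ I, x ≠ 1 → ¬ IsConj z x) → Nat.card I ≤ 4 := fun V hV hc I IV hI => by
  have O : OStmt.{u} := @_root_.H09.KO.o
  have C : CStmt.{u} := @_root_.H28.KC.c
  have u := @_root_.H27.KU.u _ _ _ (Cfsg.Agent.S5566.result hG ⟨z, hJ⟩)
  obtain ⟨P, hJ⟩ := hJ
  obtain ⟨Q, V', _, _, _, Γ, _, _, f, π, ν, T, d, M, β, q, s, dc, ou, ρ, ρs, ρk⟩ := @_root_.H27.KB.b _ _ _ z P hJ
  obtain ⟨K₀, Y₀, h0⟩ := _root_.H10.KH.h2
  have g := s.gm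
  obtain ⟨K, Y, hk, dK⟩ := Cfsg.Agent.H02.KL.l2 ρ g.d3 g.dM g.Md dc ρs ρk h0
  obtain ⟨B, p⟩ := _root_.H21.JU1.u1 g hk.hx hk.KM dK
  have pi := _root_.H18.JU.u2 g hk.hx hk.KM p
  obtain ⟨A, Az, A2, cA, AY, mA⟩ := _root_.H26.JE.e s hk.hx hk.KM p
  obtain ⟨δ, δz, δd, δ3⟩ := _root_.H26.JE.exδ s
  have x : Cx s K Y B A δ := ⟨hk, dK, p, pi, _root_.H22.JU.u3 g hk.hx hk.KM dK p pi, Az, A2, cA, AY, mA, u, δz, δd, δ3, ou⟩
  have c : C2 s Y B A δ := _root_.H26.KX.x s K Y B A δ x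
  have l := s.md.lx
  have fu : ∃ m ∈ N_(A), m * z * m⁻¹ ≠ z := _root_.H14.KF.f s K Y B A δ x c sG hG
  obtain ⟨O1, O2, pB, c1, c2, t1, t2⟩ := O s K Y B A δ x c
  obtain ⟨E, F', pA, cE, cF, zE, tE, tF, iE⟩ := C s K Y B A δ x c (_root_.H21.KG.G s K Y B A δ x)
  have nM : ∀ m ∈ N_(A), ∀ y ∈ A, m * y * m⁻¹ ∈ A := fun m i y j => (mem_normalizer_iff.1 i y).1 j
  have zB : z ∈ s.md.pull B := ⟨l.aes.mem, s.md.zz ▸ zero_mem _⟩
  have BA : s.md.pull B ≤ A := c.e3 ▸ inf_le_left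
  have QN : Q ≤ N_(A) := fun y o => (c.mN y (l.le o)).2 fun v i => by rwa [(s.ker y (l.le o)).2 o, g.one]
  have zc : ∀ y ∈ C_[z], y * z = z * y := fun y o => mem_cent1.1 o
  have ob : Ob A N_(A) (s.md.pull B) z O1 O2 E F' := by
    refine ⟨A2, cA, le_normalizer, nM, fun m _ => c.cen m, l.z1, zB, BA, by rw [s.md.card_pull, p.cB], fun m i j y o => ?_,
      ⟨Q, QN, IsPGroup.of_card (n := 13) s.card, fun y _ k => l.cz k⟩, fun t i j k => ?_, c.cN, pB, c1, c2, t1, t2, pA, cE,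
      cF, zE, tE, tF, fun y i j => ?_, fu, fun k => ?_⟩
    · exact c.e3.le ⟨nM m i y (BA o), (mem_normalizer_iff.1 (l.norm (mem_cent1.2 (mul_inv_eq_iff_eq_mul.1 j))) y).1 o.1⟩
    · by_contra n
      refine (l.cz fun r o => (l.cm o i.1).resolve_right fun w => n ⟨r, QN o, ?_, ?_⟩).elim j k
      · rw [zc r (l.le o), mul_inv_cancel_right]
      · rw [w, mul_inv_cancel_right, zc t (l.le i.1)]
    · obtain ⟨r, rA, rδ, w⟩ := c.YA _ (AY y i)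
      refine ⟨r, iE r rA rδ fun o => j (c.e3.le ⟨i, (s.ker y (Az i)).1 (w ▸ (s.ker r (Az rA)).2 o.1)⟩),
        c.e3.le ⟨mul_mem rA i, (s.ker _ (Az (mul_mem rA i))).1 ?_⟩⟩
      rw [_root_.H26.JE.mul s r (Az rA) y (Az i), w, hk.hx.Y2 _ (AY y i)]
    · obtain ⟨m, i, j⟩ := fu
      exact j (_root_.H22.KE.e s K Y B A δ x c k m i)
  obtain ⟨cf, -, -⟩ := _root_.H07.KN.n ob (_root_.H11.K89.n89 A2 cA ob.AM nM ob.cen)
  have kb := Cfsg.Agent.H02.FzK.k cf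
  have nb := _root_.H08.FzN.n cf kb
  obtain ⟨Ω, τ, σ, r⟩ := _root_.H28.FzT.t cf nb (_root_.H04.FzX.x cf kb nb)
  have eV : EA V := fun y o => (pow_two y).symm.trans (hV.2 y o)
  obtain ⟨T0, lT⟩ := eV.pg.exists_le_sylow
  have hT := isSylowIn_top Nat.prime_two T0
  obtain ⟨a, -, la⟩ := sylow_Jsub Nat.prime_two hT (EA.pg A2) le_top
  obtain rfl : V = cj a A := (u T0 T0.2).2 V lT _ la eV (EA.cj A2 a) hc ((BG.card_cj a A).trans cA)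
  rw [← BG.card_cj a⁻¹ I]
  refine _root_.H08.WP.pu r _ fun y i n => ⟨conj_mem_cj_iff.1 (IV (mem_cj_inv.1 i)), n, fun ⟨m, _, w⟩ => ?_⟩
  exact hI _ (mem_cj_inv.1 i) (fun k => n (conj_eq_one_iff.1 k)) ((isConj_iff.2 ⟨m, w⟩).trans (isConj_iff.2 ⟨a, rfl⟩))

end Cfsg.Agent.H06.W
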