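import Cfsg.Agent.H06.W0
import Cfsg.Agent.H23.K0

/-! Interface for S5568, part 2. -/

set_option autoImplicit false
open Cfsg BG Subgroup L.Fz Cfsg.Agent.H06.J

namespace Cfsg.Agent.H06.W
universe u

def C384Stmt : Prop := ∀ y : Spor.M22, y * y = 1 → y ≠ 1 → Nat.card C_[y] ≤ 384

def CyStmt : Prop := ∀ {Γ : Type u} [Group Γ] [Finite Γ] {d : Γ} {M K Y : Subgroup Γ} (ρ : M →* Spor.M22), C384Stmt →
  d * (d * d) = 1 → (∀ m : M, ρ m = 1 ↔ (m : Γ) ∈ zpowers d) → Hx d K Y → K ≤ M → Nat.card K = 17280 →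
  ∀ y ∈ Y, y ≠ 1 → ∀ g ∈ M, g * y = y * g → g ∈ K

def C3Stmt : Prop := H23.K.All.{u} fun {G _ _ z _ _ _ _ _ _ _ _ _ _ _ _ _ _ _ _} s _ Y B A δ =>
  H23.K.C2 s Y B A δ → C2Stmt.{u} → ∀ D : Set G, Cf A N_(A) (s.md.pull B) D z → Kb N_(A) (s.md.pull B) D z →
  ∀ t ∈ D, t ∈ s.md.pull B → C_[z] ⊓ C_[t] ≤ N_(A)

end Cfsg.Agent.H06.W
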