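import Cfsg.Agent.H06.W0
import Cfsg.Agent.H26.JE
import Cfsg.Agent.H20.FtW

/-! Part `C1` of S5568. -/

set_option autoImplicit false
open Cfsg BG Subgroup H01.XS Cfsg.Agent.H06.J

namespace Cfsg.Agent.H06.W
universe u

theorem c1 : C1Stmt.{u} := fun {G} _ _ {z Q V} _ _ _ {Γ} _ _ {f π ν T d M K Y β q B A} s hx KM p pu cy mA => by
  have g := s.gm
  have l := s.md.lx
  have mul := _root_.H26.JE.mul s
  have inv := _root_.H26.JE.inv s
  have key : ∀ x ∈ C_[z], (∀ v ∈ B, T (π x)⁻¹ v ∈ B) → (∀ y ∈ Y, π x * y * (π x)⁻¹ ∈ Y) → x ∈ N_(A) := fun x i a b =>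
    mem_normalizer_fintype fun w o => by
      obtain ⟨w1, w2, w3⟩ := (mA w).1 o
      refine (mA _).2 ⟨mul_mem (mul_mem i w1) (inv_mem i), ?_, fun r k => ?_⟩
      · rw [mul _ (mul_mem i w1) _ (inv_mem i), mul _ i _ w1, inv _ i]
        exact b _ w2
      · have : x⁻¹ * r * x⁻¹⁻¹ ∈ s.md.pull B := ⟨(mem_normalizer_iff.1 (l.norm (inv_mem i)) r).1 k.1, by
          rw [← s.act _ (inv_mem i) _ k.1, inv _ i]
          exact a _ k.2⟩
        rw [show r * (x * w * x⁻¹) = x * (x⁻¹ * r * x⁻¹⁻¹ * w) * x⁻¹ by group, w3 _ this]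
        group
  refine ⟨fun x i k => key x i (p.KB _ (inv_mem k)) (hx.nY _ k), fun t i n x o => ?_⟩
  obtain ⟨t1, t2, -⟩ := (mA t).1 i
  have y1 : π t ≠ 1 := fun e => n ((s.ker t t1).1 e)
  have nM : M.Normal := normal_of_index_eq_two g.Mi
  have eY : H20.FtW.EA Y := hx.Y2
  have gen : ∀ h : Γ, h * π t = π t * h → (∀ y ∈ cj h Y, y ∈ M → y ∈ K) ∧ B.map (T h) = B := fun h c => by
    have a : ∀ y ∈ cj h Y, y ∈ M → y ∈ K := fun y j k => cy _ t2 y1 y k ((eY.cj h).comm j (by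
      rw [show π t = h * π t * h⁻¹ by rw [c, mul_inv_cancel_right]]
      exact conj_mem_cj h t2))
    have ti : Function.Injective (T h) := Function.LeftInverse.injective (g := T h⁻¹) fun v => by
      rw [← g.mul, inv_mul_cancel, g.one]
    refine ⟨a, pu.un (cj h Y) (fun y j => a y j.1 j.2) (eY.cj h) _ ?_ ?_ ?_⟩
    · rintro _ ⟨u, i, rfl⟩ _ ⟨v, j, rfl⟩
      have := g.pol (T h u) (T h v)
      rw [← map_add, g.qT, g.qT, g.qT, p.qB _ i, p.qB _ j, p.qB _ (add_mem i j)] at this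
      simpa using this.symm
    · rintro y j _ ⟨v, k, rfl⟩
      obtain ⟨y, j', rfl⟩ := mem_cj'.1 j
      rw [← g.mul, inv_mul_cancel_right, g.mul, (p.mB v).1 k y j']
    · rw [BG.card_cj, hx.cY, ← Nat.card_congr (B.equivMapOfInjective _ ti).toEquiv, p.cB]
  have c : π x * π t = π t * π x := by rw [← mul _ o.1 _ t1, ← mul _ t1 _ o.1, mem_cent1.1 o.2]
  obtain ⟨a, b⟩ := gen _ c
  refine key x o.1 (fun v k => ?_) fun y j => pu.fx _ (H20.FtW.sq_conj (hx.Y2 y j) _) (a _ (conj_mem_cj _ j)) fun v k => ?_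
  · obtain ⟨u, j, rfl⟩ := b.ge k
    rwa [← g.mul, inv_mul_cancel, g.one]
  · obtain ⟨u, i, rfl⟩ := b.ge k
    rw [← g.mul, inv_mul_cancel_right, g.mul, (p.mB u).1 i y j]

end Cfsg.Agent.H06.W
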