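import Cfsg.Agent.H06.W1
import Cfsg.Agent.H26.JE
import Cfsg.Agent.H21.JU1
import Cfsg.Agent.H18.JU2
import Cfsg.Agent.H22.JU
import Cfsg.Agent.H10.FzF
import Cfsg.Agent.S5566

/-! Assembly of S5568 from the parts of `H23.K0`, `H06.W0`, `H06.W1`. -/

set_option autoImplicit false
open Cfsg BG Subgroup H01.XS Cfsg.Agent.H06.J H20.FtW Cfsg.Agent.H23.K

namespace Cfsg.Agent.H06.W
universe u

theorem orbc {G : Type u} [Group G] (A : Subgroup G) (a t : G) :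
    {v : G | ∃ n ∈ N_(cj a A), n * (a * t * a⁻¹) * n⁻¹ = v}.ncard = {v : G | ∃ n ∈ N_(A), n * t * n⁻¹ = v}.ncard := by
  rw [← Set.ncard_image_of_injective {v : G | ∃ n ∈ N_(A), n * t * n⁻¹ = v} (MulAut.conj a).injective]
  congr 1
  ext v
  constructor
  · rintro ⟨n, i, rfl⟩
    rw [← cj_norm] at i
    exact ⟨_, ⟨_, mem_cj.1 i, rfl⟩, by simp only [MulAut.conj_apply]; group⟩
  · rintro ⟨_, ⟨n, i, rfl⟩, rfl⟩
    exact ⟨a * n * a⁻¹, cj_norm a A ▸ conj_mem_cj a i, by simp only [MulAut.conj_apply]; group⟩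

theorem fin (h2 : H2Stmt) (l2 : L2Stmt.{u}) (b2 : B2Stmt.{u}) (U : UStmt.{u}) (X : XStmt.{u}) (Gs : GStmt.{u})
    (F : FStmt.{u}) (Es : H23.K.EStmt.{u}) (O : OStmt.{u}) (C : CStmt.{u}) (N89 : N89Stmt.{u}) (N : NStmt.{u})
    (fK : _root_.L.Fz.KStmt.{u}) (fN : _root_.L.Fz.NStmt.{u}) (fX : _root_.L.Fz.XStmt.{u}) (fT : _root_.L.Fz.TStmt.{u})
    (fS : _root_.L.Fz.SStmt.{u})
    (Mu : MuStmt) (Pu' : PuStmt.{u}) (Sc : ScStmt.{u}) (W : Cfsg.Agent.H06.W.WStmt.{u}) (C1 : C1Stmt.{u}) (C2' : C2Stmt.{u})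
    (C384 : C384Stmt) (Cy : CyStmt.{u}) (C3 : C3Stmt.{u})
    {G : Type u} [Group G] [Finite G] [sG : IsSimpleGroup G] (hG : ¬ IsMulCommutative G) (z : G) (hJ : IsOfJankoFourTypeAt z)
    (V : Subgroup G) (hV : IsElementaryAbelian 2 V) (hc : Nat.card ↥V = 2 ^ 11) :
    ∃ z' t : G, z' ∈ V ∧ t ∈ V ∧ t ≠ 1 ∧ IsConj z z' ∧ ¬ IsConj z t ∧
    Set.ncard {v : G | ∃ n ∈ Subgroup.normalizer (V : Set G), n * z' * n⁻¹ = v} = 1771 ∧
    Set.ncard {v : G | ∃ n ∈ Subgroup.normalizer (V : Set G), n * t * n⁻¹ = v} = 276 ∧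
    Subgroup.centralizer ({t} : Set G) ≤ Subgroup.normalizer (V : Set G) := by
  have u := U (Cfsg.Agent.S5566.result hG ⟨z, hJ⟩)
  obtain ⟨P, hJ⟩ := hJ
  obtain ⟨Q, V', _, _, _, Γ, _, _, f, π, ν, T, d, M, β, q, s, dc, ou, ρ, ρs, ρk⟩ := b2 z P hJ
  obtain ⟨K₀, Y₀, h0⟩ := h2
  have g := s.gm
  obtain ⟨K, Y, hk, dK⟩ := l2 ρ g.d3 g.dM g.Md dc ρs ρk h0
  obtain ⟨B, p⟩ := _root_.H21.JU1.u1 g hk.hx hk.KM dK
  have pi := _root_.H18.JU.u2 g hk.hx hk.KM p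
  obtain ⟨A, Az, A2, cA, AY, mA⟩ := _root_.H26.JE.e s hk.hx hk.KM p
  obtain ⟨δ, δz, δd, δ3⟩ := _root_.H26.JE.exδ s
  have x : Cx s K Y B A δ := ⟨hk, dK, p, pi, _root_.H22.JU.u3 g hk.hx hk.KM dK p pi, Az, A2, cA, AY, mA, u, δz, δd, δ3, ou⟩
  have c : C2 s Y B A δ := X s K Y B A δ x
  have l := s.md.lx
  have fu : ∃ m ∈ N_(A), m * z * m⁻¹ ≠ z := F s K Y B A δ x c sG hG
  obtain ⟨O1, O2, pB, c1, c2, t1, t2⟩ := O s K Y B A δ x c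
  obtain ⟨E, F', pA, cE, cF, zE, tE, tF, iE⟩ := C s K Y B A δ x c (Gs s K Y B A δ x)
  have nM : ∀ m ∈ N_(A), ∀ y ∈ A, m * y * m⁻¹ ∈ A := fun m i y j => (mem_normalizer_iff.1 i y).1 j
  have zB : z ∈ s.md.pull B := ⟨l.aes.mem, s.md.zz ▸ zero_mem _⟩
  have BA : s.md.pull B ≤ A := c.e3 ▸ inf_le_left
  have QN : Q ≤ N_(A) := fun y o => (c.mN y (l.le o)).2 fun v i => by rwa [(s.ker y (l.le o)).2 o, g.one]
  have zc : ∀ y ∈ C_[z], y * z = z * y := fun y o => mem_cent1.1 o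
  have ob : Ob A N_(A) (s.md.pull B) z O1 O2 E F' := by
    refine ⟨A2, cA, le_normalizer, nM, fun m _ => c.cen m, l.z1, zB, BA, by rw [s.md.card_pull, p.cB], fun m i j y o => ?_,
      ⟨Q, QN, IsPGroup.of_card (n := 13) s.card, fun y _ k => l.cz k⟩, fun t i j k => ?_, c.cN, pB, c1, c2, t1, t2, pA, cE,
      cF, zE, tE, tF, fun y i j => ?_, fu, fun k => ?_⟩
    · exact c.e3.le ⟨nM m i y (BA o), (mem_normalizer_iff.1 (l.norm (mem_cent1.2 (mul_inv_eq_iff_eq_mul.1 j))) y).1 o.1⟩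
    · by_contra n
      refine (l.cz fun r o => (l.cm o i.1).resolve_right fun w => n ⟨r, QN o, ?_, ?_⟩).elim j k
      · rw [zc r (l.le o), mul_inv_cancel_right]
      · rw [w, mul_inv_cancel_right, zc t (l.le i.1)]
    · obtain ⟨r, rA, rδ, w⟩ := c.YA _ (AY y i)
      refine ⟨r, iE r rA rδ fun o => j (c.e3.le ⟨i, (s.ker y (Az i)).1 (w ▸ (s.ker r (Az rA)).2 o.1)⟩),
        c.e3.le ⟨mul_mem rA i, (s.ker _ (Az (mul_mem rA i))).1 ?_⟩⟩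
      rw [_root_.H26.JE.mul s r (Az rA) y (Az i), w, hk.hx.Y2 _ (AY y i)]
    · obtain ⟨m, i, j⟩ := fu
      exact j (Es s K Y B A δ x c k m i)
  obtain ⟨cf, -, cN⟩ := N ob (N89 A2 cA ob.AM nM ob.cen)
  have kb := fK cf
  have nb := fN cf kb
  obtain ⟨Ω, τ, σ, r⟩ := fT cf nb (fX cf kb nb)
  obtain ⟨e, he⟩ := fS cf nb r
  have eA : EA A := A2
  have cK : Nat.card K = 17280 := by
    have a1 := card_mul_relIndex hk.KM
    have a2 := M.card_mul_index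
    rw [hk.iK] at a1
    rw [g.Mi, g.cΓ] at a2
    omega
  have c1 := (C1 s hk.hx hk.KM p x.pu (Cy ρ C384 g.d3 ρk hk.hx hk.KM cK) (A := A) fun y =>
    ⟨fun i => ⟨Az i, AY y i, fun w o => eA.comm (BA o) i⟩, fun ⟨a, b, c⟩ => mA y a b c⟩).2
  have hD : ∀ y ∈ A, y ∈ DD A N_(A) z ↔ y ≠ 1 ∧ ¬ IsConj z y := fun y i =>
    ⟨fun ⟨_, a, b⟩ => ⟨a, fun k => by
      obtain ⟨w, rfl⟩ := isConj_iff.1 k
      exact b (fus u eA cA (BA zB) i)⟩, fun ⟨a, b⟩ => ⟨i, a, fun ⟨m, _, w⟩ => b (isConj_iff.2 ⟨m, w⟩)⟩⟩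
  have xc : Xc A N_(A) (DD A N_(A) z) z := ⟨rfl, hD, fun w k => (u (cj w A ⊔ A)
      (IsPGroup.to_sup_of_normal_right' (eA.cj w).pg eA.pg k)).2 _ le_sup_left _ le_sup_right (eA.cj w) eA
      ((BG.card_cj w A).trans cA) cA,
    fun t i => by
      by_cases o : t ∈ Q
      · exact C3 s K Y B A δ x c C2' _ cf kb t i (c.e3.le ⟨i.1, o⟩)
      · exact c1 t i.1 o⟩
  have mu : ∀ m : N_(A), σ m * σ m = 1 → σ m ≠ 1 → 16 ≤ {i | σ m i ≠ i}.ncard := fun m a b => by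
    have := Mu _ (he m) (by rw [← Equiv.permCongrHom_coe, ← map_mul, a, map_one])
      fun k => b ((map_eq_one_iff e.permCongrHom e.permCongrHom.injective).1 k)
    rwa [← Set.ncard_image_of_injective _ e.injective, show e '' {i | σ m i ≠ i} = {i | e.permCongr (σ m) i ≠ i} from
      Set.ext fun i => by
        obtain ⟨i, rfl⟩ := e.surjective i
        simp]
  have pu := Pu' r
  have w := W cf r xc pu (Sc cf r xc (fun m => (_root_.H10.FzF.ker cf r m).1) mu pu)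
  obtain ⟨t, tD, -⟩ := cf.exD
  have eV : EA V := fun y o => (pow_two y).symm.trans (hV.2 y o)
  obtain ⟨T0, lT⟩ := eV.pg.exists_le_sylow
  have hT := isSylowIn_top Nat.prime_two T0
  obtain ⟨a, -, la⟩ := sylow_Jsub Nat.prime_two hT (EA.pg A2) le_top
  obtain rfl : V = cj a A := (u T0 T0.2).2 V lT _ la eV (EA.cj A2 a) hc ((BG.card_cj a A).trans cA)
  refine ⟨a * z * a⁻¹, a * t * a⁻¹, conj_mem_cj a (BA zB), conj_mem_cj a tD.1, fun k => tD.2.1 (conj_eq_one_iff.1 k),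
    isConj_iff.2 ⟨a, rfl⟩, fun k => ((hD t tD.1).1 tD).2 (k.trans (isConj_iff.2 ⟨a, rfl⟩).symm), ?_, ?_, ?_⟩
  · rw [orbc]
    have a1 := _root_.H10.FzF.orb N_(A) z
    rw [c.cN, cN] at a1
    omega
  · rw [orbc, ← nb.d]
    congr 1
    exact Set.ext fun v => ⟨fun ⟨n, i, k⟩ => k ▸ cf.Dc n i t tD, fun k => cf.trD t tD v k⟩
  · rw [← cj_norm, ← cj_cent1]
    exact cj_mono a (w t tD)

end Cfsg.Agent.H06.W
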